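import Cfsg.Agent.H997.Rg.SyA

/-!
# S3691, F-D+2 (d): `|P| ^ 2 ≤ |W|`, parity, commuting endomorphisms (helper997)
-/

set_option autoImplicit false
set_option linter.unusedSectionVars false

namespace Cfsg.Agent.H997.Rg

open Module Subgroup

universe u v w

variable {K : Type v} [Group K] [Finite K] {F : Type u} {V : Type w} [Field F] [Finite F] [AddCommGroup V] [Module F V]
    [FiniteDimensional F V] {f n r : ℕ} {B : LinearMap.BilinForm F V} {ρ : K →* Module.End F V} {y : K}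

theorem Sy.isoR (h : Sy f n r B ρ y) (g : K) (x z : V) : B x (ρ g z) = B (ρ g⁻¹ x) z := by
  have h1 := h.iso g (ρ g⁻¹ x) z
  rw [← Module.End.mul_apply, ← map_mul, mul_inv_cancel, map_one, Module.End.one_apply] at h1
  exact h1

theorem inv_of_sq {K : Type*} [Group K] {a : K} (h : a * a = 1) : a⁻¹ = a := inv_eq_of_mul_eq_one_right h

/-- `X_c = y X_c'` is impossible -/
theorem Sy.no_rel (h : Sy f n r B ρ y) {P : Subgroup K} (hP : IsPGroup 2 P) (hP1 : P ≠ ⊥) (hn : ∀ a ∈ P, y * a * y⁻¹ ∈ P)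
    {u : V} (hu : u ∉ fixW ρ P) {c c' : K} (hc : c ∈ P) (hc' : c' ∈ P) (huu : ρ c u - u = ρ y (ρ c' u - u)) :
    c = 1 ∧ c' = 1 := by
  have hch := h.charP
  have hnt := h.nontriv
  obtain ⟨hfin, hperp, hspec, hsq⟩ := h.w_spec hP hP1 hn
  have hcomm := h.comm hP hP1 hn
  obtain ⟨N, hN⟩ : ∃ N : Module.End F V, N = (ρ c - 1) - ρ y * (ρ c' - 1) := ⟨_, rfl⟩
  have hNa : ∀ x, N x = (ρ c x - x) - ρ y (ρ c' x - x) := by
    intro x; rw [hN]; rfl
  have hyc : ∀ a ∈ P, ∀ x, ρ a (ρ y x) = ρ y (ρ a x) := by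
    intro a ha x
    rw [← Module.End.mul_apply, ← map_mul, ← Module.End.mul_apply, ← map_mul, (hcomm a ha).eq]
  have hNy : ∀ x, N (ρ y x) = ρ y (N x) := by
    intro x
    simp only [hNa, hyc c hc, hyc c' hc', map_sub]
  have hWN : fixW ρ P ≤ LinearMap.ker N := by
    intro x hx
    rw [LinearMap.mem_ker, hNa, mem_fixW.1 hx c hc, mem_fixW.1 hx c' hc', sub_self, map_zero, sub_zero]
  have hNu : N u = 0 := by rw [hNa, huu, sub_self]
  have hker : LinearMap.ker N = ⊤ := by
    by_contra htop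
    have h1 := h.fpf.finrank_eq Nat.prime_two h.hr h.r2 h.hy h.ordq h.dim (LinearMap.ker N)
      (fun w hw => by rw [LinearMap.mem_ker, hNy, LinearMap.mem_ker.1 hw, map_zero]) (by
        intro h0
        rw [h0, le_bot_iff] at hWN
        rw [hWN, finrank_bot] at hfin
        have := h.n6
        omega) htop
    have h2 : fixW ρ P = LinearMap.ker N := Submodule.eq_of_le_of_finrank_le hWN (by rw [h1, hfin])
    apply hu
    rw [h2]
    exact hNu
  have hN0 : ∀ x, ρ c x - x = ρ y (ρ c' x - x) := by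
    intro x
    have h1 : x ∈ LinearMap.ker N := by rw [hker]; trivial
    rw [LinearMap.mem_ker, hNa, sub_eq_zero] at h1
    exact h1
  -- self-adjointness
  have hself : ∀ a ∈ P, ∀ x z, B x (ρ a z - z) = B (ρ a x - x) z := by
    intro a ha x z
    rw [map_sub, map_sub, LinearMap.sub_apply, h.isoR a x z, inv_of_sq (hsq a ha)]
  have h2 : ∀ z, ρ y (ρ c' z - z) = ρ y⁻¹ (ρ c' z - z) := by
    intro z
    rw [← sub_eq_zero]
    apply h.nd
    intro x
    rw [h.symm, map_sub, sub_eq_zero, ← hN0 z, hself c hc, hN0 x]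
    have h3 := h.isoR y⁻¹ (ρ c' x - x) (ρ y z)
    rw [inv_inv] at h3
    have h4 : ρ y⁻¹ (ρ y z) = z := by
      rw [← Module.End.mul_apply, ← map_mul, inv_mul_cancel, map_one, Module.End.one_apply]
    rw [h4] at h3
    have h5 : B (ρ y (ρ c' x - x)) z = B (ρ c' x - x) (ρ y⁻¹ z) := by
      rw [h.isoR y⁻¹ (ρ c' x - x) z, inv_inv]
    rw [h5, ← hself c' hc']
    congr 1
    have h6 : ρ c' (ρ y⁻¹ z) = ρ y⁻¹ (ρ c' z) := by
      rw [← Module.End.mul_apply, ← map_mul, ← Module.End.mul_apply, ← map_mul,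
        ((hcomm c' hc').symm.inv_right).eq]
    rw [h6, map_sub]
  have hc1 : c' = 1 := by
    apply h.inj
    rw [map_one]
    apply LinearMap.ext
    intro z
    rw [Module.End.one_apply]
    have h3 : ρ (y ^ 2) (ρ c' z - z) = ρ c' z - z := by
      rw [pow_two, map_mul, Module.End.mul_apply, h2 z, ← Module.End.mul_apply, ← map_mul, mul_inv_cancel, map_one,
        Module.End.one_apply]
    have h4 : orderOf (y ^ 2) = r := by
      rw [← h.hy]
      apply Nat.Coprime.orderOf_pow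
      rw [h.hy]
      exact (Nat.coprime_primes h.hr Nat.prime_two).2 h.r2
    have h5 := h.fpf (y ^ 2) (by rw [h4]; exact h.hr) (by rw [h4]; exact h.r2) _ h3
    exact sub_eq_zero.1 h5
  refine ⟨?_, hc1⟩
  apply h.inj
  rw [map_one]
  apply LinearMap.ext
  intro z
  have h3 := hN0 z
  rw [hc1, map_one, Module.End.one_apply, sub_self, map_zero, sub_eq_zero] at h3
  exact h3

theorem Sy.sq_le (h : Sy f n r B ρ y) {P : Subgroup K} (hP : IsPGroup 2 P) (hP1 : P ≠ ⊥) (hn : ∀ a ∈ P, y * a * y⁻¹ ∈ P) :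
    Nat.card P ^ 2 ≤ 2 ^ (f * n) := by
  have hch := h.charP
  have hfV : Finite V := Module.finite_of_finite F
  obtain ⟨hfin, hperp, hspec, hsq⟩ := h.w_spec hP hP1 hn
  have hcomm := h.comm hP hP1 hn
  obtain ⟨u, hu⟩ := h.exists_not_mem hP hP1 hn
  have hW : ∀ a ∈ P, ρ a u - u ∈ fixW ρ P := by
    intro a ha
    by_cases ha1 : a = 1
    · rw [ha1, map_one, Module.End.one_apply, sub_self]
      exact Submodule.zero_mem _
    · rw [← (hspec a ha ha1).2]
      exact ⟨u, rfl⟩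
  have hadd : ∀ a ∈ P, ∀ b ∈ P, ρ (a * b) u - u = (ρ a u - u) + (ρ b u - u) := by
    intro a ha b hb
    have h1 := mem_fixW.1 (hW b hb) a ha
    rw [map_sub, sub_eq_iff_eq_add] at h1
    rw [map_mul, Module.End.mul_apply, h1]
    abel
  have hWy : ∀ w ∈ fixW ρ P, ρ y w ∈ fixW ρ P := fixW_inv (conj_inv_mem hn)
  rw [← h.cardW hP hP1 hn, pow_two, ← Nat.card_prod]
  let φ : P × P → fixW ρ P := fun a => ⟨(ρ a.1 u - u) + ρ y (ρ a.2 u - u),
    Submodule.add_mem _ (hW a.1 a.1.2) (hWy _ (hW a.2 a.2.2))⟩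
  refine Nat.card_le_card_of_injective φ ?_
  rintro ⟨a, a'⟩ ⟨b, b'⟩ hab
  have h1 : (ρ a u - u) + ρ y (ρ a' u - u) = (ρ b u - u) + ρ y (ρ b' u - u) := congrArg Subtype.val hab
  have h2 := h.no_rel hP hP1 hn hu (P.mul_mem a.2 b.2) (P.mul_mem a'.2 b'.2) (by
    rw [hadd a a.2 b b.2, hadd a' a'.2 b' b'.2, map_add]
    have e1 := h.sub_eq
    have h3 := h.two (ρ b u - u)
    have h4 := h.two (ρ y (ρ a' u - u))
    calc (ρ a u - u) + (ρ b u - u)
        = ((ρ a u - u) + ρ y (ρ a' u - u)) + (ρ b u - u) + ρ y (ρ a' u - u) := by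
          rw [add_assoc, add_assoc, ← add_assoc (ρ y (ρ a' u - u)), add_comm (ρ y (ρ a' u - u)) (ρ b u - u), add_assoc, h4, add_zero]
      _ = ((ρ b u - u) + (ρ b u - u)) + (ρ y (ρ a' u - u) + ρ y (ρ b' u - u)) := by rw [h1]; abel
      _ = ρ y (ρ a' u - u) + ρ y (ρ b' u - u) := by rw [h3, zero_add])
  have h3 : ∀ c d : P, (c : K) * d = 1 → c = d := by
    intro c d hcd
    apply Subtype.ext
    have h4 := hsq d d.2
    exact mul_right_cancel (hcd.trans h4.symm)
  rw [h3 a b h2.1, h3 a' b' h2.2]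

/-- the fixed space of an involution -/
theorem half_ker (h2 : ∀ x : V, x + x = 0) (W : Submodule F V) (g : Module.End F V) (hg : ∀ w ∈ W, g w ∈ W)
    (hgg : ∀ w ∈ W, g (g w) = w) : finrank F W ≤ 2 * finrank F (W ⊓ LinearMap.ker (g - 1) : Submodule F V) := by
  have hN : ∀ w ∈ W, (g - 1 : Module.End F V) w ∈ W := by
    intro w hw
    exact W.sub_mem (hg w hw) hw
  have h1 := LinearMap.finrank_range_add_finrank_ker ((g - 1 : Module.End F V).restrict hN)
  have h3 : LinearMap.range ((g - 1 : Module.End F V).restrict hN) ≤ LinearMap.ker ((g - 1 : Module.End F V).restrict hN) := by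
    rintro _ ⟨x, rfl⟩
    rw [LinearMap.mem_ker]
    apply Subtype.ext
    change (g - 1 : Module.End F V) ((g - 1 : Module.End F V) x) = 0
    simp only [LinearMap.sub_apply, Module.End.one_apply, map_sub, hgg x x.2]
    have h4 := h2 ((x : V) - g x)
    have h5 : (x : V) - g x - (g x - x) = (x - g x) + (x - g x) := by abel
    rw [h5, h4]
  have h4 := Submodule.finrank_mono h3
  have h5 : (LinearMap.ker ((g - 1 : Module.End F V).restrict hN)).map W.subtype = W ⊓ LinearMap.ker (g - 1 : Module.End F V) := by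
    ext x
    constructor
    · rintro ⟨x, hx, rfl⟩
      exact ⟨x.2, congrArg Subtype.val (LinearMap.mem_ker.1 hx)⟩
    · rintro ⟨hx, hx'⟩
      exact ⟨⟨x, hx⟩, Subtype.ext (LinearMap.mem_ker.1 hx'), rfl⟩
  rw [← h5, Submodule.finrank_map_subtype_eq]
  omega

/-- a linear map on `W` -/
theorem finrank_map_add (W : Submodule F V) (N : Module.End F V) :
    finrank F (W.map N) + finrank F (W ⊓ LinearMap.ker N : Submodule F V) = finrank F W := by
  have h1 := LinearMap.finrank_range_add_finrank_ker (N.domRestrict W)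
  rw [LinearMap.range_domRestrict] at h1
  have h5 : (LinearMap.ker (N.domRestrict W)).map W.subtype = W ⊓ LinearMap.ker N := by
    ext x
    constructor
    · rintro ⟨x, hx, rfl⟩
      exact ⟨x.2, LinearMap.mem_ker.1 hx⟩
    · rintro ⟨hx, hx'⟩
      exact ⟨⟨x, hx⟩, hx', rfl⟩
  rw [← h5, Submodule.finrank_map_subtype_eq]
  exact h1

/-- **parity** -/
theorem Sy.par (h : Sy f n r B ρ y) {P : Subgroup K} (hP : IsPGroup 2 P) (hP1 : P ≠ ⊥) (hn : ∀ a ∈ P, y * a * y⁻¹ ∈ P)
    {t : K} (ht : ∀ a ∈ P, t * a * t⁻¹ ∈ P) (htt : t * t ∈ P) {u : K} (hu : ∀ a ∈ P, u * a * u⁻¹ ∈ P)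
    (hfix : ∀ w ∈ fixW ρ P, ρ u w = w → w = 0) (hinv : ∀ w ∈ fixW ρ P, ρ t (ρ u w) = ρ u⁻¹ (ρ t w)) : 4 ∣ n := by
  have hch := h.charP
  have hfV : Finite V := Module.finite_of_finite F
  obtain ⟨hfin, hperp, hspec, hsq⟩ := h.w_spec hP hP1 hn
  have hWt : ∀ w ∈ fixW ρ P, ρ t w ∈ fixW ρ P := fixW_inv (conj_inv_mem ht)
  have hWu : ∀ w ∈ fixW ρ P, ρ u w ∈ fixW ρ P := fixW_inv (conj_inv_mem hu)
  have htw : ∀ w ∈ fixW ρ P, ρ t (ρ t w) = w := by
    intro w hw
    rw [← Module.End.mul_apply, ← map_mul]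
    exact mem_fixW.1 hw _ htt
  have hinvu : ∀ x, ρ u (ρ u⁻¹ x) = x := by
    intro x
    rw [← Module.End.mul_apply, ← map_mul, mul_inv_cancel, map_one, Module.End.one_apply]
  -- the dimension of `C_W(t)`
  have h1 := half_ker h.two (fixW ρ P) (ρ t) hWt htw
  have h2 := half_ker h.two (fixW ρ P) (ρ t * ρ u) (fun w hw => hWt _ (hWu w hw)) (by
    intro w hw
    rw [Module.End.mul_apply, Module.End.mul_apply, hinv w hw, hinvu, htw w hw])
  have h3 : (fixW ρ P ⊓ LinearMap.ker (ρ t - 1 : Module.End F V)) ⊓ (fixW ρ P ⊓ LinearMap.ker (ρ t * ρ u - 1 : Module.End F V)) = ⊥ := by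
    rw [eq_bot_iff]
    rintro w ⟨⟨hw, h4⟩, ⟨-, h5⟩⟩
    rw [SetLike.mem_coe, LinearMap.mem_ker, LinearMap.sub_apply, Module.End.one_apply, sub_eq_zero] at h4 h5
    rw [Module.End.mul_apply, hinv w hw, h4] at h5
    have h6 : ρ u w = w := by
      conv_lhs => rw [← h5]
      rw [hinvu]
    exact (Submodule.mem_bot F).2 (hfix w hw h6)
  have h4 := Submodule.finrank_sup_add_finrank_inf_eq (fixW ρ P ⊓ LinearMap.ker (ρ t - 1 : Module.End F V))
    (fixW ρ P ⊓ LinearMap.ker (ρ t * ρ u - 1 : Module.End F V))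
  rw [h3, finrank_bot] at h4
  have h5 := Submodule.finrank_mono (sup_le (inf_le_left : fixW ρ P ⊓ LinearMap.ker (ρ t - 1 : Module.End F V) ≤ fixW ρ P)
    (inf_le_left : fixW ρ P ⊓ LinearMap.ker (ρ t * ρ u - 1 : Module.End F V) ≤ fixW ρ P))
  rw [hfin] at h1 h2 h5
  have h6 := finrank_map_add (fixW ρ P) (ρ t - 1 : Module.End F V)
  rw [hfin] at h6
  -- the element `a`
  obtain ⟨a, haP, ha1, hform⟩ : ∃ a ∈ P, a ≠ 1 ∧ ∀ x, B x ((ρ t - 1 : Module.End F V) ((ρ a - 1 : Module.End F V) x)) = 0 := by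
    by_cases htt1 : t * t = 1
    · -- an element of `P` commuting with `t`
      have hab : ∀ a ∈ P, ∀ b ∈ P, a * b = b * a := by
        intro a ha b hb
        have e1 := hsq a ha
        have e2 := hsq b hb
        have e3 := hsq (a * b) (P.mul_mem ha hb)
        calc a * b = (a * b)⁻¹ := (inv_of_sq e3).symm
          _ = b * a := by rw [mul_inv_rev, inv_of_sq e1, inv_of_sq e2]
      obtain ⟨a, ha, ha1, hta⟩ : ∃ a ∈ P, a ≠ 1 ∧ t * a = a * t := by
        obtain ⟨b, hbP, hb, hb1⟩ := exists_invol hP hP1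
        by_cases hc : t * b = b * t
        · exact ⟨b, hbP, hb1, hc⟩
        · refine ⟨b * (t * b * t⁻¹), P.mul_mem hbP (ht b hbP), ?_, ?_⟩
          · intro h0
            apply hc
            have h7 : t * b * t⁻¹ = b := by
              have h8 := eq_inv_of_mul_eq_one_right h0
              rw [h8, inv_of_sq hb]
            exact mul_inv_eq_iff_eq_mul.1 h7
          · have h7 := hab b hbP (t * b * t⁻¹) (ht b hbP)
            have h9 : t * (b * (t * b * t⁻¹)) * t⁻¹ = b * (t * b * t⁻¹) := by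
              calc t * (b * (t * b * t⁻¹)) * t⁻¹ = (t * b * t⁻¹) * ((t * t) * b * (t * t)⁻¹) := by group
                _ = (t * b * t⁻¹) * b := by rw [htt1, one_mul, inv_one, mul_one]
                _ = b * (t * b * t⁻¹) := h7.symm
            exact mul_inv_eq_iff_eq_mul.1 h9
      refine ⟨a, ha, ha1, fun x => ?_⟩
      have e1 := hsq a ha
      have e2 : (t * a) * (t * a) = 1 := by
        calc (t * a) * (t * a) = (t * a) * (a * t) := by rw [hta]
          _ = t * (a * a) * t := by group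
          _ = 1 := by rw [e1, mul_one, htt1]
      have e3 := h.typ (t * a) e2 x
      have e4 := h.typ t htt1 x
      have e5 := h.typ a e1 x
      rw [map_mul, Module.End.mul_apply] at e3
      simp only [LinearMap.sub_apply, Module.End.one_apply, map_sub]
      rw [e3, e4, e5, h.alt]
      ring
    · refine ⟨t * t, htt, htt1, fun x => ?_⟩
      have e1 := h.four t (hsq _ htt) x
      rw [pow_succ', pow_two] at e1
      have e2 : (ρ (t * t) - 1 : Module.End F V) x = ((ρ t - 1 : Module.End F V) * (ρ t - 1 : Module.End F V)) x := by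
        rw [Module.End.mul_apply, map_mul]
        simp only [LinearMap.sub_apply, Module.End.one_apply, map_sub, Module.End.mul_apply]
        have e3 := h.two (ρ t x)
        have e4 := h.two x
        have e5 : ρ t (ρ t x) - ρ t x - (ρ t x - x) = ρ t (ρ t x) - x - (ρ t x + ρ t x) + (x + x) := by abel
        rw [e5, e3, e4, sub_zero, add_zero]
      rw [e2]
      exact e1
  -- the rank is even
  obtain ⟨hk, hr⟩ := hspec a haP ha1
  let β : LinearMap.BilinForm F V := B.compl₂ ((ρ t - 1 : Module.End F V) ∘ₗ (ρ a - 1 : Module.End F V))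
  have hβ : ∀ x z, β x z = B x ((ρ t - 1 : Module.End F V) ((ρ a - 1 : Module.End F V) z)) := fun x z => rfl
  have hAlt : β.IsAlt := fun x => hform x
  obtain ⟨k, hk2⟩ := Cfsg.Agent.ClassicalGeometry.TwoFamilies.exists_finrank_eq_ker_add β hAlt
  have hker : LinearMap.ker β = LinearMap.ker ((ρ t - 1 : Module.End F V) ∘ₗ (ρ a - 1 : Module.End F V)) := by
    ext x
    rw [LinearMap.mem_ker, LinearMap.mem_ker]
    have hsw : ∀ z, β z x = - β x z := fun z => (LinearMap.IsAlt.neg (B := β) hAlt x z).symm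
    constructor
    · intro hx
      apply h.nd
      intro z
      rw [h.symm]
      change β z x = 0
      rw [hsw, hx, LinearMap.zero_apply, neg_zero]
    · intro hx
      ext z
      have h7 : β z x = 0 := by
        change B z (((ρ t - 1 : Module.End F V) ∘ₗ (ρ a - 1 : Module.End F V)) x) = 0
        rw [hx, map_zero]
      rw [hsw, neg_eq_zero] at h7
      exact h7
  have h7 := LinearMap.finrank_range_add_finrank_ker ((ρ t - 1 : Module.End F V) ∘ₗ (ρ a - 1 : Module.End F V))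
  rw [LinearMap.range_comp, hr] at h7
  rw [hker] at hk2
  have h8 := h.ne
  obtain ⟨j, hj⟩ := h8
  have h9 : 2 * finrank F ((fixW ρ P).map (ρ t - 1 : Module.End F V)) = n := by omega
  exact ⟨k, by omega⟩

/-- **`P` embeds into the endomorphisms of `W = fixW ρ P` commuting with `L`** -/
theorem Sy.emb (h : Sy f n r B ρ y) {P : Subgroup K} (hP : IsPGroup 2 P) (hP1 : P ≠ ⊥) (hn : ∀ a ∈ P, y * a * y⁻¹ ∈ P)
    {L : Subgroup K} (_hyL : y ∈ L) (hL : ∀ g ∈ L, ∀ a ∈ P, Commute g a) :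
    ∃ S : Set (Module.End F (fixW ρ P)), Nat.card S = Nat.card P ∧ ∀ e ∈ S, ∀ g ∈ L, ∀ w w' : fixW ρ P,
      (w' : V) = ρ g w → ((e w' : fixW ρ P) : V) = ρ g (e w : fixW ρ P) := by
  obtain ⟨hfin, hperp, hspec, hsq⟩ := h.w_spec hP hP1 hn
  obtain ⟨a0, ha0P, -, ha01⟩ := exists_invol hP hP1
  obtain ⟨hk0, hr0⟩ := hspec a0 ha0P ha01
  have hrange : ∀ a ∈ P, ∀ x, (ρ a - 1 : Module.End F V) x ∈ fixW ρ P := by
    intro a ha x
    by_cases ha1 : a = 1
    · rw [ha1, map_one, sub_self, LinearMap.zero_apply]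
      exact Submodule.zero_mem _
    · rw [← (hspec a ha ha1).2]
      exact ⟨x, rfl⟩
  let X : P → (V →ₗ[F] fixW ρ P) := fun a => LinearMap.codRestrict (fixW ρ P) (ρ a - 1 : Module.End F V) (hrange a a.2)
  have hX : ∀ (a : P) (x : V), ((X a x : fixW ρ P) : V) = ρ a x - x := fun a x => rfl
  have hsurj : Function.Surjective (X ⟨a0, ha0P⟩) := by
    rintro ⟨w, hw⟩
    rw [← hr0] at hw
    obtain ⟨z, hz⟩ := hw
    exact ⟨z, Subtype.ext hz⟩
  have hkX : ∀ a : P, LinearMap.ker (X ⟨a0, ha0P⟩) ≤ LinearMap.ker (X a) := by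
    intro a x hx
    have h1 : ρ a0 x - x = 0 := congrArg Subtype.val (LinearMap.mem_ker.1 hx)
    have h2 : x ∈ fixW ρ P := by
      rw [← hk0]
      exact h1
    rw [LinearMap.mem_ker]
    apply Subtype.ext
    rw [hX, mem_fixW.1 h2 a a.2, sub_self]
    rfl
  let E : P → Module.End F (fixW ρ P) := fun a =>
    ((LinearMap.ker (X ⟨a0, ha0P⟩)).liftQ (X a) (hkX a)) ∘ₗ
      (LinearMap.quotKerEquivOfSurjective (X ⟨a0, ha0P⟩) hsurj).symm.toLinearMap
  have hE : ∀ (a : P) (z : V), E a (X ⟨a0, ha0P⟩ z) = X a z := by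
    intro a z
    have h1 : (LinearMap.quotKerEquivOfSurjective (X ⟨a0, ha0P⟩) hsurj).symm (X ⟨a0, ha0P⟩ z) = Submodule.Quotient.mk z := by
      rw [LinearEquiv.symm_apply_eq]
      rfl
    change (LinearMap.ker (X ⟨a0, ha0P⟩)).liftQ (X a) (hkX a)
      ((LinearMap.quotKerEquivOfSurjective (X ⟨a0, ha0P⟩) hsurj).symm (X ⟨a0, ha0P⟩ z)) = _
    rw [h1]
    rfl
  have hinjE : Function.Injective E := by
    intro a b hab
    apply Subtype.ext
    apply h.inj
    apply LinearMap.ext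
    intro z
    have h1 : X a z = X b z := by rw [← hE a z, ← hE b z, hab]
    have h2 := congrArg Subtype.val h1
    rw [hX, hX] at h2
    exact sub_left_injective h2
  refine ⟨Set.range E, ?_, ?_⟩
  · exact (Nat.card_congr (Equiv.ofInjective E hinjE)).symm
  · rintro _ ⟨a, rfl⟩ g hg w w' hw
    obtain ⟨z, hz⟩ := hsurj w
    have h1 : X ⟨a0, ha0P⟩ (ρ g z) = w' := by
      apply Subtype.ext
      rw [hw, ← hz, hX, hX, map_sub]
      congr 1
      rw [← Module.End.mul_apply, ← map_mul, ← Module.End.mul_apply, ← map_mul, (hL g hg a0 ha0P).eq]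
    rw [← h1, ← hz, hE, hE, hX, hX, map_sub]
    congr 1
    rw [← Module.End.mul_apply, ← map_mul, ← Module.End.mul_apply, ← map_mul, (hL g hg a a.2).eq]

end Cfsg.Agent.H997.Rg
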