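import Cfsg.Agent.H997.Rg.UG

/-!
# S3691, F-D+2 (d): the abstract frame (helper997)

`K` (the stabiliser of a nonsingular vector `v`) acts on the symplectic space `V = v^⊥/v` of dimension `2n` over the field with
`2 ^ f` elements; `y ∈ K` has order `r`, `2` has order `f n` modulo `r`.
-/

set_option autoImplicit false

namespace Cfsg.Agent.H997.Rg

open Module Subgroup

universe u v w

/-- **the abstract frame of F-D+2 (d)** -/
structure Sy {K : Type v} [Group K] [Finite K] {F : Type u} {V : Type w} [Field F] [AddCommGroup V] [Module F V]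
    (f n r : ℕ) (B : LinearMap.BilinForm F V) (ρ : K →* Module.End F V) (y : K) : Prop where
  hF : Nat.card F = 2 ^ f
  f3 : 3 ≤ f
  n6 : 6 ≤ n
  ne : Even n
  dim : finrank F V = 2 * n
  alt : ∀ x, B x x = 0
  nd : ∀ x, (∀ z, B x z = 0) → x = 0
  iso : ∀ g x z, B (ρ g x) (ρ g z) = B x z
  inj : Function.Injective ρ
  fpf : Fpf 2 ρ
  /-- involutions have rank `n` -/
  inv : ∀ t : K, t * t = 1 → t ≠ 1 → finrank F (LinearMap.ker (ρ t - 1 : Module.End F V)) = n
  /-- and are of type `a` -/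
  typ : ∀ t : K, t * t = 1 → ∀ x, B x (ρ t x) = 0
  /-- elements of order four -/
  four : ∀ t : K, (t * t) * (t * t) = 1 → ∀ x, B x (((ρ t - 1 : Module.End F V) ^ 3) x) = 0
  hr : r.Prime
  ord : orderOf ((2 : ℕ) : ZMod r) = f * n
  hy : orderOf y = r
  dvd : Nat.card K ∣ 2 ^ (f * n) * (2 ^ (f * n) - 1)
  ge : 2 ^ (f * n) * (2 ^ (f * n) - 1) ≤ 4 * f * (2 ^ f + 1) * Nat.card K

end Cfsg.Agent.H997.Rg
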