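import Cfsg.Agent.H997.Rg.Sy
import Cfsg.Agent.ClassicalGeometry.TwoFamilies

/-!
# S3691, F-D+2 (d): 2-subgroups normalised by `y` (helper997)
-/

set_option autoImplicit false

namespace Cfsg.Agent.H997.Rg

open Module Subgroup

universe u v w

variable {K : Type v} [Group K] [Finite K] {F : Type u} {V : Type w} [Field F] [Finite F] [AddCommGroup V] [Module F V]
    [FiniteDimensional F V] {f n r : ℕ} {B : LinearMap.BilinForm F V} {ρ : K →* Module.End F V} {y : K}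

theorem Sy.charP (h : Sy f n r B ρ y) : CharP F 2 := by
  have := Fintype.ofFinite F
  have := Fact.mk Nat.prime_two
  have h1 := h.hF
  rw [Nat.card_eq_fintype_card] at h1
  exact charP_of_card_eq_prime_pow h1

theorem Sy.two (h : Sy f n r B ρ y) (x : V) : x + x = 0 := by
  have := h.charP
  rw [← two_smul F, CharTwo.two_eq_zero, zero_smul]

theorem Sy.sub_eq (h : Sy f n r B ρ y) (x z : V) : x - z = x + z := by
  have h1 := h.two z
  rw [sub_eq_iff_eq_add, add_assoc, h1, add_zero]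

theorem Sy.symm (h : Sy f n r B ρ y) (x z : V) : B x z = B z x := by
  have := h.charP
  have h1 := h.alt (x + z)
  simp only [map_add, LinearMap.add_apply, h.alt, zero_add, add_zero] at h1
  have h2 : B z x + B z x = 0 := CharTwo.add_self_eq_zero _
  have h3 : B x z + B z x = 0 := by
    rw [← h1]; ring
  exact eq_of_sub_eq_zero (by rw [sub_eq_add_neg, CharTwo.neg_eq, h3])

theorem Sy.fn0 (h : Sy f n r B ρ y) : f * n ≠ 0 := by
  have h1 := h.f3
  have h2 := h.n6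
  positivity

theorem Sy.ltr (h : Sy f n r B ρ y) : f * n < r := by
  have hr2 : r ≠ 2 := ne_of_orderOf Nat.prime_two h.ord h.fn0
  exact lt_of_orderOf h.hr hr2 Nat.prime_two h.ord

theorem Sy.fn18 (h : Sy f n r B ρ y) : 18 ≤ f * n := by
  calc 18 = 3 * 6 := rfl
    _ ≤ f * n := Nat.mul_le_mul h.f3 h.n6

theorem Sy.r2 (h : Sy f n r B ρ y) : r ≠ 2 := by
  have h1 := h.ltr
  have h2 := h.fn18
  omega

theorem Sy.ordq (h : Sy f n r B ρ y) : orderOf ((Nat.card F : ℕ) : ZMod r) = n := by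
  rw [h.hF]
  exact order_card (by have := h.f3; omega) h.ord

theorem conj_inv_mem {K : Type*} [Group K] [Finite K] {P : Subgroup K} {y : K} (hn : ∀ a ∈ P, y * a * y⁻¹ ∈ P) :
    ∀ a ∈ P, y⁻¹ * a * y ∈ P := by
  have h1 : ∀ k : ℕ, ∀ a ∈ P, y ^ k * a * (y ^ k)⁻¹ ∈ P := by
    intro k
    induction k with
    | zero => intro a ha; simpa using ha
    | succ k ih =>
      intro a ha
      have h2 := hn _ (ih a ha)
      have h3 : y ^ (k + 1) * a * (y ^ (k + 1))⁻¹ = y * (y ^ k * a * (y ^ k)⁻¹) * y⁻¹ := by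
        rw [pow_succ']; group
      rw [h3]; exact h2
  intro a ha
  have h2 := h1 (orderOf y - 1) a ha
  have h3 : y ^ (orderOf y - 1) = y⁻¹ := by
    rw [eq_inv_iff_mul_eq_one, ← pow_succ, Nat.sub_add_cancel (orderOf_pos y), pow_orderOf_eq_one]
  rw [h3, inv_inv] at h2
  exact h2

theorem exists_invol {K : Type*} [Group K] [Finite K] {P : Subgroup K} (hP : IsPGroup 2 P) (hP1 : P ≠ ⊥) :
    ∃ b ∈ P, b * b = 1 ∧ b ≠ 1 := by
  have := Fact.mk Nat.prime_two
  obtain ⟨k, hk⟩ := IsPGroup.iff_card.1 hP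
  have hk0 : k ≠ 0 := by
    rintro rfl
    rw [pow_zero] at hk
    exact hP1 (Subgroup.card_eq_one.1 hk)
  obtain ⟨b, hb⟩ := exists_prime_orderOf_dvd_card' (G := P) 2 (by rw [hk]; exact dvd_pow_self 2 hk0)
  refine ⟨b, b.2, ?_, ?_⟩
  · have h1 : b * b = 1 := by rw [← pow_two, ← hb, pow_orderOf_eq_one]
    exact congrArg Subtype.val h1
  · intro h1
    have h2 : b = 1 := Subtype.ext h1
    rw [h2, orderOf_one] at hb
    norm_num at hb

theorem Sy.Nsq (h : Sy f n r B ρ y) {b : K} (hb : b * b = 1) (x : V) :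
    (ρ b - 1 : Module.End F V) ((ρ b - 1 : Module.End F V) x) = 0 := by
  have h1 : ρ b (ρ b x) = x := by
    rw [← Module.End.mul_apply, ← map_mul, hb, map_one, Module.End.one_apply]
  simp only [LinearMap.sub_apply, Module.End.one_apply, map_sub, h1]
  rw [h.sub_eq, h.sub_eq, h.sub_eq]
  have h2 := h.two x
  have h3 := h.two (ρ b x)
  calc x + ρ b x + (ρ b x + x) = (x + x) + (ρ b x + ρ b x) := by abel
    _ = 0 := by rw [h2, h3, add_zero]

theorem Sy.nontriv (h : Sy f n r B ρ y) : Nontrivial V := by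
  apply Module.nontrivial_of_finrank_pos (R := F)
  rw [h.dim]
  have := h.n6
  omega

/-- **a 2-subgroup normalised by `y`** -/
theorem Sy.w_spec (h : Sy f n r B ρ y) {P : Subgroup K} (hP : IsPGroup 2 P) (hP1 : P ≠ ⊥) (hn : ∀ a ∈ P, y * a * y⁻¹ ∈ P) :
    finrank F (fixW ρ P) = n ∧ (∀ x, x ∈ fixW ρ P ↔ ∀ w ∈ fixW ρ P, B x w = 0) ∧
    (∀ a ∈ P, a ≠ 1 → LinearMap.ker (ρ a - 1 : Module.End F V) = fixW ρ P ∧ LinearMap.range (ρ a - 1 : Module.End F V) = fixW ρ P) ∧
    (∀ a ∈ P, a * a = 1) := by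
  have hch := h.charP
  have hV := h.nontriv
  have hfV : Finite V := Module.finite_of_finite F
  have hW0 : fixW ρ P ≠ ⊥ := fixW_ne_bot Nat.prime_two P hP
  have hWy : ∀ v ∈ fixW ρ P, ρ y v ∈ fixW ρ P := fixW_inv (conj_inv_mem hn)
  obtain ⟨D, hD0, hDle, hDd⟩ := h.fpf.le_finrank Nat.prime_two h.hr h.r2 h.hy (fixW ρ P) hWy hW0
  rw [h.ordq] at hDd
  have hnW : n ≤ finrank F (fixW ρ P) := (Nat.le_of_dvd hD0 hDd).trans hDle
  obtain ⟨b, hbP, hb, hb1⟩ := exists_invol hP hP1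
  have hle : ∀ a ∈ P, fixW ρ P ≤ LinearMap.ker (ρ a - 1 : Module.End F V) := by
    intro a ha x hx
    rw [LinearMap.mem_ker, LinearMap.sub_apply, Module.End.one_apply, sub_eq_zero]
    exact mem_fixW.1 hx a ha
  have hker : ∀ a ∈ P, a * a = 1 → a ≠ 1 → LinearMap.ker (ρ a - 1 : Module.End F V) = fixW ρ P := by
    intro a ha haa ha1
    exact (Submodule.eq_of_le_of_finrank_le (hle a ha) (by rw [h.inv a haa ha1]; exact hnW)).symm
  have hfin : finrank F (fixW ρ P) = n := by rw [← hker b hbP hb hb1, h.inv b hb hb1]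
  have hrk : ∀ a ∈ P, a * a = 1 → a ≠ 1 → finrank F (LinearMap.range (ρ a - 1 : Module.End F V)) = n := by
    intro a ha haa ha1
    have h1 := LinearMap.finrank_range_add_finrank_ker (ρ a - 1 : Module.End F V)
    rw [h.inv a haa ha1, h.dim] at h1
    omega
  have hrange : LinearMap.range (ρ b - 1 : Module.End F V) = fixW ρ P := by
    apply Submodule.eq_of_le_of_finrank_le
    · rw [← hker b hbP hb hb1]
      rintro _ ⟨x, rfl⟩
      exact h.Nsq hb x
    · rw [hrk b hbP hb hb1, hfin]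
  have hiso : ∀ x ∈ fixW ρ P, ∀ w ∈ fixW ρ P, B x w = 0 := by
    intro x hx w hw
    rw [← hrange] at hw
    obtain ⟨z, rfl⟩ := hw
    rw [LinearMap.sub_apply, Module.End.one_apply, map_sub]
    have h1 := h.iso b x z
    rw [mem_fixW.1 hx b hbP] at h1
    rw [h1, sub_self]
  have hperp : ∀ x, (∀ w ∈ fixW ρ P, B x w = 0) → x ∈ fixW ρ P := by
    have hnd : B.Nondegenerate :=
      ⟨fun x hx => h.nd x fun z => hx z, fun x hx => h.nd x fun z => by rw [h.symm]; exact hx z⟩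
    have h1 := LinearMap.BilinForm.finrank_orthogonal hnd (fixW ρ P)
    have h2 : fixW ρ P ≤ B.orthogonal (fixW ρ P) := by
      intro x hx w hw
      exact hiso w hw x hx
    have h3 : fixW ρ P = B.orthogonal (fixW ρ P) := by
      apply Submodule.eq_of_le_of_finrank_le h2
      rw [h1, hfin, h.dim]
      omega
    intro x hx
    rw [h3]
    intro w hw
    change B w x = 0
    rw [h.symm]
    exact hx w hw
  have hrW : ∀ a ∈ P, ∀ x, (ρ a - 1 : Module.End F V) x ∈ fixW ρ P := by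
    intro a ha x
    apply hperp
    intro w hw
    rw [LinearMap.sub_apply, Module.End.one_apply, map_sub, LinearMap.sub_apply]
    have h1 := h.iso a x w
    rw [mem_fixW.1 hw a ha] at h1
    rw [h1, sub_self]
  have hsq : ∀ a ∈ P, a * a = 1 := by
    intro a ha
    apply h.inj
    rw [map_mul, map_one]
    apply LinearMap.ext
    intro x
    rw [Module.End.mul_apply, Module.End.one_apply]
    have h1 := hrW a ha x
    have h2 := mem_fixW.1 h1 a ha
    rw [LinearMap.sub_apply, Module.End.one_apply, map_sub, h.sub_eq, h.sub_eq] at h2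
    have h3 : ρ a (ρ a x) + ρ a x = x + ρ a x := by rw [h2]; abel
    exact add_right_cancel h3
  refine ⟨hfin, fun x => ⟨fun hx w hw => hiso x hx w hw, hperp x⟩, fun a ha ha1 => ⟨hker a ha (hsq a ha) ha1, ?_⟩, hsq⟩
  apply Submodule.eq_of_le_of_finrank_le
  · rintro _ ⟨x, rfl⟩
    exact hrW a ha x
  · rw [hrk a ha (hsq a ha) ha1, hfin]

theorem Sy.irrW (h : Sy f n r B ρ y) {P : Subgroup K} (hP : IsPGroup 2 P) (hP1 : P ≠ ⊥) (hn : ∀ a ∈ P, y * a * y⁻¹ ∈ P)
    (U : Submodule F V) (hU : ∀ u ∈ U, ρ y u ∈ U) (hU0 : U ≠ ⊥) (hUW : U ≤ fixW ρ P) : U = fixW ρ P := by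
  have hch := h.charP
  obtain ⟨D, hD0, hDle, hDd⟩ := h.fpf.le_finrank Nat.prime_two h.hr h.r2 h.hy U hU hU0
  rw [h.ordq] at hDd
  apply Submodule.eq_of_le_of_finrank_le hUW
  rw [(h.w_spec hP hP1 hn).1]
  exact (Nat.le_of_dvd hD0 hDd).trans hDle

theorem Sy.cardW (h : Sy f n r B ρ y) {P : Subgroup K} (hP : IsPGroup 2 P) (hP1 : P ≠ ⊥) (hn : ∀ a ∈ P, y * a * y⁻¹ ∈ P) :
    Nat.card (fixW ρ P) = 2 ^ (f * n) := by
  have h1 : Nat.card (fixW ρ P) = Nat.card F ^ finrank F (fixW ρ P) := Module.natCard_eq_pow_finrank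
  rw [h1, (h.w_spec hP hP1 hn).1, h.hF, ← pow_mul]

theorem Sy.exists_not_mem (h : Sy f n r B ρ y) {P : Subgroup K} (hP : IsPGroup 2 P) (hP1 : P ≠ ⊥)
    (hn : ∀ a ∈ P, y * a * y⁻¹ ∈ P) : ∃ u : V, u ∉ fixW ρ P := by
  by_contra hcon
  push Not at hcon
  have h1 : fixW ρ P = ⊤ := by
    rw [eq_top_iff]
    exact fun x _ => hcon x
  have h2 := (h.w_spec hP hP1 hn).1
  rw [h1, finrank_top, h.dim] at h2
  have := h.n6
  omega

/-- evaluation at a vector outside `W` -/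
theorem Sy.ev_inj (h : Sy f n r B ρ y) {P : Subgroup K} (hP : IsPGroup 2 P) (hP1 : P ≠ ⊥)
    (hn : ∀ a ∈ P, y * a * y⁻¹ ∈ P) {u : V} (hu : u ∉ fixW ρ P) {a b : K} (ha : a ∈ P) (hb : b ∈ P)
    (hab : ρ a u = ρ b u) : a = b := by
  by_contra hne
  have h1 : b⁻¹ * a ≠ 1 := fun h0 => hne (inv_mul_eq_one.1 h0).symm
  have h2 := ((h.w_spec hP hP1 hn).2.2.1 (b⁻¹ * a) (P.mul_mem (P.inv_mem hb) ha) h1).1
  apply hu
  rw [← h2, LinearMap.mem_ker, LinearMap.sub_apply, Module.End.one_apply, sub_eq_zero, map_mul, Module.End.mul_apply, hab,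
    ← Module.End.mul_apply, ← map_mul, inv_mul_cancel, map_one, Module.End.one_apply]

theorem Sy.card_lt (h : Sy f n r B ρ y) {P : Subgroup K} (hP : IsPGroup 2 P) (hP1 : P ≠ ⊥)
    (hn : ∀ a ∈ P, y * a * y⁻¹ ∈ P) : Nat.card P < 2 ^ (f * n) := by
  have hch := h.charP
  have hfV : Finite V := Module.finite_of_finite F
  obtain ⟨hfin, hperp, hspec, hsq⟩ := h.w_spec hP hP1 hn
  obtain ⟨u, hu⟩ := h.exists_not_mem hP hP1 hn
  -- a vector of `W` not orthogonal to `u`
  obtain ⟨w, hw, huw⟩ : ∃ w ∈ fixW ρ P, B u w ≠ 0 := by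
    by_contra hcon
    push Not at hcon
    exact hu ((hperp u).2 hcon)
  have hW : ∀ a ∈ P, ρ a u - u ∈ fixW ρ P := by
    intro a ha
    by_cases ha1 : a = 1
    · rw [ha1, map_one, Module.End.one_apply, sub_self]
      exact Submodule.zero_mem _
    · rw [← (hspec a ha ha1).2]
      exact ⟨u, rfl⟩
  rw [← h.cardW hP hP1 hn]
  let φ : P → fixW ρ P := fun a => ⟨ρ a u - u, hW a a.2⟩
  have hφ : Function.Injective φ := by
    intro a b hab
    have h1 : ρ a u - u = ρ b u - u := congrArg Subtype.val hab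
    exact Subtype.ext (h.ev_inj hP hP1 hn hu a.2 b.2 (sub_left_injective h1))
  refine lt_of_le_of_ne (Nat.card_le_card_of_injective φ hφ) ?_
  intro hcard
  have hsurj : Function.Surjective φ := by
    have := (Nat.bijective_iff_injective_and_card φ).2 ⟨hφ, hcard⟩
    exact this.2
  obtain ⟨a, ha⟩ := hsurj ⟨w, hw⟩
  have h1 : ρ a u - u = w := congrArg Subtype.val ha
  apply huw
  rw [← h1, map_sub, h.alt, sub_zero]
  exact h.typ a (hsq a a.2) u

theorem Sy.comm (h : Sy f n r B ρ y) {P : Subgroup K} (hP : IsPGroup 2 P) (hP1 : P ≠ ⊥) (hn : ∀ a ∈ P, y * a * y⁻¹ ∈ P) :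
    ∀ a ∈ P, Commute y a := by
  have := Fact.mk Nat.prime_two
  refine commute_of_small Nat.prime_two h.hr h.r2 h.hy P hP hn ?_
  have h1 := h.card_lt hP hP1 hn
  obtain ⟨k, hk⟩ := IsPGroup.iff_card.1 hP
  rw [hk] at h1 ⊢
  rw [h.ord, Nat.Prime.factorization_pow Nat.prime_two, Finsupp.single_eq_same]
  exact (Nat.pow_lt_pow_iff_right (by norm_num)).1 h1

end Cfsg.Agent.H997.Rg
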