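import Cfsg.Agent.H997.Rg.SyB
import Cfsg.Agent.H100.D2.EvenEven
import Cfsg.Agent.Involutions.BaerSuzuki

/-!
# S3691, F-D+2 (d): the case `O₂(K) ≠ 1` (helper997)
-/

set_option autoImplicit false
set_option linter.unusedSectionVars false

namespace Cfsg.Agent.H997.Rg

open Module Subgroup
open Cfsg.Agent.SignalizersComponents.Components

universe u v w

/-- the statement `suz_small` -/
def SuzSmall : Prop := ∀ {G : Type v} [Group G] [Finite G], IsQuasisimple G → ∀ {F : Type u} {W : Type w} [Field F] [Finite F]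
    [CharP F 2] [AddCommGroup W] [Module F W] [FiniteDimensional F W] (σ : G →* Module.End F W),
    Function.Injective σ → Fpf 2 σ → ∀ {y : G}, (∀ U : Submodule F W, (∀ u ∈ U, σ y u ∈ U) → U = ⊥ ∨ U = ⊤) →
    ∀ {b : ℕ}, 2 ≤ b → Nat.card W = 2 ^ (4 * b) →
    Nat.card (G ⧸ center G) = (2 ^ b) ^ 2 * ((2 ^ b) ^ 2 + 1) * (2 ^ b - 1) →
    ∀ (S : Set (Module.End F W)), (∀ e ∈ S, ∀ g, e * σ g = σ g * e) → Nat.card S ≤ 2 ^ b

/-! ### Numbers -/

theorem num_d {f j : ℕ} (hf : 3 ≤ f) (hj : 4 ≤ j) : 4 * f * (2 ^ f + 1) * (8 * j + 4) < 2 ^ (f * j) := by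
  rcases Nat.lt_or_ge j 5 with h5 | h5
  · have hj4 : j = 4 := by omega
    subst hj4
    rcases Nat.lt_or_ge f 4 with h4 | h4
    · have hf3 : f = 3 := by omega
      subst hf3
      norm_num
    · have h1 : ∀ f : ℕ, 4 ≤ f → 288 * f < 8 ^ f := by
        intro f hf
        induction f, hf using Nat.le_induction with
        | base => norm_num
        | succ m hm ih => rw [pow_succ]; omega
      have h2 := h1 f h4
      have h3 : (2 : ℕ) ^ (f * 4) = 2 ^ f * 8 ^ f := by
        rw [show (8 : ℕ) = 2 ^ 3 by norm_num, ← pow_mul, ← pow_add]; congr 1; ring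
      have h4 : 1 ≤ 2 ^ f := Nat.one_le_two_pow
      rw [h3]
      calc 4 * f * (2 ^ f + 1) * (8 * 4 + 4) ≤ 4 * f * (2 * 2 ^ f) * (8 * 4 + 4) :=
            Nat.mul_le_mul_right _ (Nat.mul_le_mul_left _ (by omega))
        _ = 2 ^ f * (288 * f) := by ring
        _ < 2 ^ f * 8 ^ f := Nat.mul_lt_mul_of_pos_left h2 (by positivity)
  · have h1 := H100.D2.num_b hf h5
    calc 4 * f * (2 ^ f + 1) * (8 * j + 4) = 16 * f * (2 ^ f + 1) * (2 * j + 1) := by ring
      _ ≤ 16 * f * (2 ^ f + 1) * (2 * j + 3) := Nat.mul_le_mul_left _ (by omega)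
      _ < 2 ^ (f * j) := h1

theorem num_e {f j : ℕ} (hf : 3 ≤ f) (hj : 3 ≤ j) : 4 * f * (2 ^ f + 1) < 2 ^ (f * j) := by
  have h1 : ∀ f : ℕ, 3 ≤ f → 8 * f < 4 ^ f := by
    intro f hf
    induction f, hf using Nat.le_induction with
    | base => norm_num
    | succ m hm ih => rw [pow_succ]; omega
  have h2 := h1 f hf
  have h3 : (2 : ℕ) ^ (f * 3) = 2 ^ f * 4 ^ f := by
    rw [show (4 : ℕ) = 2 ^ 2 by norm_num, ← pow_mul, ← pow_add]; congr 1; ring
  have h4 : 1 ≤ 2 ^ f := Nat.one_le_two_pow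
  calc 4 * f * (2 ^ f + 1) ≤ 4 * f * (2 * 2 ^ f) := Nat.mul_le_mul_left _ (by omega)
    _ = 2 ^ f * (8 * f) := by ring
    _ < 2 ^ f * 4 ^ f := Nat.mul_lt_mul_of_pos_left h2 (by positivity)
    _ = 2 ^ (f * 3) := h3.symm
    _ ≤ 2 ^ (f * j) := Nat.pow_le_pow_right two_pos (Nat.mul_le_mul_left _ hj)

/-! ### An involution inverts an element of odd prime order -/

theorem exists_inv {G : Type*} [Group G] [Finite G] (hO : pCore 2 G = ⊥) {t : G} (ht : t * t = 1) (ht1 : t ≠ 1) :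
    ∃ u : G, (orderOf u).Prime ∧ orderOf u ≠ 2 ∧ t * u * t⁻¹ = u⁻¹ := by
  obtain ⟨h, h1, hodd, hinv⟩ := Cfsg.Agent.Involutions.BaerSuzuki.exists_odd_inverted t ht (by
    intro hP
    have h1 : Subgroup.normalClosure {t} ≤ pCore 2 G := Cfsg.Agent.Lib.Cores.le_pCore inferInstance hP
    rw [hO, le_bot_iff] at h1
    have h2 : t ∈ Subgroup.normalClosure {t} := Subgroup.subset_normalClosure rfl
    rw [h1, Subgroup.mem_bot] at h2
    exact ht1 h2)
  have h0 : orderOf h ≠ 1 := fun h2 => h1 (orderOf_eq_one_iff.1 h2)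
  obtain ⟨s, hs, hsd⟩ := Nat.exists_prime_and_dvd h0
  have hpos := orderOf_pos h
  have ho : orderOf (h ^ (orderOf h / s)) = s := by
    rw [orderOf_pow_of_dvd (Nat.div_pos (Nat.le_of_dvd hpos hsd) hs.pos).ne' (Nat.div_dvd_of_dvd hsd)]
    exact Nat.div_div_self hsd hpos.ne'
  refine ⟨h ^ (orderOf h / s), by rw [ho]; exact hs, ?_, ?_⟩
  · rw [ho]
    rintro rfl
    exact (Nat.not_even_iff_odd.2 hodd) (even_iff_two_dvd.2 hsd)
  · rw [← conj_pow, hinv, inv_pow]

variable {K : Type v} [Group K] [Finite K] {F : Type u} {V : Type w} [Field F] [Finite F] [AddCommGroup V] [Module F V]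
    [FiniteDimensional F V] {f n r : ℕ} {B : LinearMap.BilinForm F V} {ρ : K →* Module.End F V} {y : K}

/-! ### Orders -/

theorem Sy.pos (h : Sy f n r B ρ y) : 1 < 2 ^ (f * n) := Nat.one_lt_two_pow h.fn0

theorem Sy.v_le (h : Sy f n r B ρ y) : (Nat.card K).factorization 2 ≤ f * n := by
  have h1 := h.pos
  have h6 := fac_le (p := 2) h.dvd (mul_ne_zero (by positivity) (by omega))
  rwa [H100.D2.fac_two_pow_mul (H100.D2.odd_two_pow_sub h.fn0)] at h6

theorem Sy.odd_dvd (h : Sy f n r B ρ y) : Nat.card K / 2 ^ (Nat.card K).factorization 2 ∣ 2 ^ (f * n) - 1 := by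
  have h7 : Nat.Coprime 2 (Nat.card K / 2 ^ (Nat.card K).factorization 2) :=
    Nat.coprime_ordCompl Nat.prime_two Nat.card_pos.ne'
  exact Nat.Coprime.dvd_of_dvd_mul_left (Nat.Coprime.pow_left _ h7).symm ((Nat.ordCompl_dvd _ 2).trans h.dvd)

theorem Sy.dvd_odd (h : Sy f n r B ρ y) {m : ℕ} (hm : ¬ 2 ∣ m) (hd : m ∣ Nat.card K) : m ∣ 2 ^ (f * n) - 1 :=
  Nat.Coprime.dvd_of_dvd_mul_left (Nat.Coprime.pow_left (f * n) ((Nat.Prime.coprime_iff_not_dvd Nat.prime_two).2 hm)).symm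
    (hd.trans h.dvd)

theorem Sy.low (h : Sy f n r B ρ y) : 2 ^ (f * n) ≤ 4 * f * (2 ^ f + 1) * 2 ^ (Nat.card K).factorization 2 := by
  have h1 := h.pos
  have h7 := Nat.le_of_dvd (by omega) h.odd_dvd
  have h8 : 2 ^ (Nat.card K).factorization 2 * (Nat.card K / 2 ^ (Nat.card K).factorization 2) = Nat.card K :=
    Nat.ordProj_mul_ordCompl_eq_self _ 2
  have h9 : (2 ^ (f * n) - 1) * 2 ^ (f * n) ≤ (2 ^ (f * n) - 1) * (4 * f * (2 ^ f + 1) * 2 ^ (Nat.card K).factorization 2) := by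
    calc (2 ^ (f * n) - 1) * 2 ^ (f * n) = 2 ^ (f * n) * (2 ^ (f * n) - 1) := mul_comm _ _
      _ ≤ 4 * f * (2 ^ f + 1) * Nat.card K := h.ge
      _ = 4 * f * (2 ^ f + 1) * (2 ^ (Nat.card K).factorization 2 * (Nat.card K / 2 ^ (Nat.card K).factorization 2)) := by rw [h8]
      _ ≤ 4 * f * (2 ^ f + 1) * (2 ^ (Nat.card K).factorization 2 * (2 ^ (f * n) - 1)) :=
        Nat.mul_le_mul_left _ (Nat.mul_le_mul_left _ h7)
      _ = _ := by ring
  exact Nat.le_of_mul_le_mul_left h9 (by omega)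

theorem Sy.ord_dvd (h : Sy f n r B ρ y) {k : ℕ} (hk : r ∣ 2 ^ k - 1) : f * n ∣ k := by
  rw [← h.ord]
  exact orderOf_dvd_of_dvd Nat.prime_two hk

/-- lifts of the elements of a component -/
theorem lift_cent {A : Subgroup K} [A.Normal] {L : Subgroup (K ⧸ A)} (hL : IsQuasisimple L) {y : K}
    (hyA : y ∈ centralizer (A : Set K)) (hyL : (y : K ⧸ A) ∈ L) (hyC : (y : K ⧸ A) ∉ centralizer (L : Set (K ⧸ A))) :
    ∀ g ∈ L, ∃ x ∈ centralizer (A : Set K), (x : K ⧸ A) = g := by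
  have hM : ((centralizer (A : Set K)).map (QuotientGroup.mk' A)).Normal :=
    Subgroup.Normal.map inferInstance _ (QuotientGroup.mk'_surjective A)
  have hN : (((centralizer (A : Set K)).map (QuotientGroup.mk' A)).subgroupOf L).Normal := hM.subgroupOf L
  rcases quasisimple_normal hL _ hN with h | h
  · intro g hg
    have h1 : (⟨g, hg⟩ : L) ∈ ((centralizer (A : Set K)).map (QuotientGroup.mk' A)).subgroupOf L := by
      rw [h]; trivial
    obtain ⟨x, hx, hxg⟩ := Subgroup.mem_map.1 (Subgroup.mem_subgroupOf.1 h1)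
    exact ⟨x, hx, hxg⟩
  · exfalso
    have h1 : (⟨(y : K ⧸ A), hyL⟩ : L) ∈ ((centralizer (A : Set K)).map (QuotientGroup.mk' A)).subgroupOf L :=
      Subgroup.mem_subgroupOf.2 (Subgroup.mem_map.2 ⟨y, hyA, rfl⟩)
    have h2 := mem_center_iff.1 (h h1)
    apply hyC
    rw [mem_centralizer_iff]
    intro g hg
    exact congrArg Subtype.val (h2 ⟨g, hg⟩)

/-- **the case `O₂(K) ≠ 1`** -/
theorem Sy.core_ne' (hJ : OutJ1.{v}) (hSuz : SuzSmall.{u, v, w}) (h : Sy f n r B ρ y) (hA : pCore 2 K ≠ ⊥) :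
    f * n < 2 ^ (Nat.card (K ⧸ pCore 2 K)).factorization 2 ∧ 2 ^ (f * n) - 1 ∣ Nat.card K := by
  have := Fact.mk Nat.prime_two
  have hch := h.charP
  have hnt := h.nontriv
  have hfV : Finite V := Module.finite_of_finite F
  have hAn : (pCore 2 K).Normal := Cfsg.Agent.Lib.Cores.pCore_normal 2
  have hA2 : IsPGroup 2 (pCore 2 K) := Cfsg.Agent.Lib.Cores.pCore_isPGroup 2
  have hn : ∀ a ∈ pCore 2 K, y * a * y⁻¹ ∈ pCore 2 K := fun a ha => hAn.conj_mem a ha y
  obtain ⟨hfin, hperp, hspec, hsq⟩ := h.w_spec hA2 hA hn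
  have hcomm := h.comm hA2 hA hn
  have hsqle := h.sq_le hA2 hA hn
  have hlow := h.low
  have hv := h.v_le
  have hltr := h.ltr
  have h18 := h.fn18
  have hf3 := h.f3
  have hn6 := h.n6
  obtain ⟨j, hj⟩ := h.ne
  -- the quotient
  have hσ : Function.Injective (quoW ρ (pCore 2 K)) := quo_inj h.fpf Nat.prime_two
  have hσf : Fpf 2 (quoW ρ (pCore 2 K)) := h.fpf.quo Nat.prime_two hA2
  have hWnt : Nontrivial (fixW ρ (pCore 2 K)) := by
    apply Module.nontrivial_of_finrank_pos (R := F)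
    rw [hfin]; omega
  have hyq : orderOf (y : K ⧸ pCore 2 K) = r := by
    have h1 : orderOf (y : K ⧸ pCore 2 K) ∣ r := by
      rw [← h.hy]
      exact orderOf_map_dvd (QuotientGroup.mk' (pCore 2 K)) y
    rcases (Nat.dvd_prime h.hr).1 h1 with h2 | h2
    · exfalso
      rw [orderOf_eq_one_iff, QuotientGroup.eq_one_iff] at h2
      have h3 := hsq y h2
      have h4 : orderOf y ∣ 2 := orderOf_dvd_of_pow_eq_one (by rw [pow_two, h3])
      rw [h.hy] at h4
      exact h.r2 ((Nat.prime_dvd_prime_iff_eq h.hr Nat.prime_two).1 h4)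
    · exact h2
  have hirr : ∀ U : Submodule F (fixW ρ (pCore 2 K)), (∀ u ∈ U, quoW ρ (pCore 2 K) (y : K ⧸ pCore 2 K) u ∈ U) → U = ⊥ ∨ U = ⊤ :=
    hσf.irr Nat.prime_two h.hr h.r2 hyq (by rw [h.ordq, hfin])
  have hcent : ¬ 2 ∣ Nat.card (centralizer ({(y : K ⧸ pCore 2 K)} : Set (K ⧸ pCore 2 K))) :=
    irr_cent Nat.prime_two hσ hirr
  -- the orders
  have hcard : Nat.card K = Nat.card (K ⧸ pCore 2 K) * Nat.card (pCore 2 K) :=
    Subgroup.card_eq_card_quotient_mul_card_subgroup _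
  obtain ⟨a, ha⟩ := IsPGroup.iff_card.1 hA2
  obtain ⟨κ, hκ⟩ : ∃ κ, κ = (Nat.card (K ⧸ pCore 2 K)).factorization 2 := ⟨_, rfl⟩
  have hvK : (Nat.card K).factorization 2 = κ + a := by
    rw [hcard, Nat.factorization_mul Nat.card_pos.ne' Nat.card_pos.ne', Finsupp.add_apply, ha,
      Nat.Prime.factorization_pow Nat.prime_two, Finsupp.single_eq_same, hκ]
  have haj : a ≤ f * j := by
    rw [ha, ← pow_mul] at hsqle
    have h1 := (Nat.pow_le_pow_iff_right (by norm_num)).1 hsqle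
    have h2 : f * n = 2 * (f * j) := by rw [hj]; ring
    omega
  have hB : 2 ^ (f * j) ≤ 4 * f * (2 ^ f + 1) * 2 ^ κ := by
    have h1 : 2 ^ (f * j) * 2 ^ (f * j) ≤ 2 ^ (f * j) * (4 * f * (2 ^ f + 1) * 2 ^ κ) := by
      calc 2 ^ (f * j) * 2 ^ (f * j) = 2 ^ (f * n) := by rw [← pow_add, hj]; congr 1; ring
        _ ≤ 4 * f * (2 ^ f + 1) * 2 ^ (Nat.card K).factorization 2 := hlow
        _ = 4 * f * (2 ^ f + 1) * 2 ^ κ * 2 ^ a := by rw [hvK, pow_add]; ring
        _ ≤ 4 * f * (2 ^ f + 1) * 2 ^ κ * 2 ^ (f * j) := Nat.mul_le_mul_left _ (Nat.pow_le_pow_right two_pos haj)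
        _ = _ := by ring
    exact Nat.le_of_mul_le_mul_left h1 (by positivity)
  rw [← hκ]
  -- the parity of `j`
  by_cases h4 : 4 ∣ n
  swap
  · exfalso
    have hκ0 : κ = 0 := by
      rw [hκ]
      apply Nat.factorization_eq_zero_of_not_dvd
      intro hd
      obtain ⟨t', ht'⟩ := exists_prime_orderOf_dvd_card' (G := K ⧸ pCore 2 K) 2 hd
      obtain ⟨t, rfl⟩ := QuotientGroup.mk_surjective t'
      have htt : (t : K ⧸ pCore 2 K) * t = 1 := by
        have h0 := pow_orderOf_eq_one (t : K ⧸ pCore 2 K)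
        rwa [ht', pow_two] at h0
      have ht1 : (t : K ⧸ pCore 2 K) ≠ 1 := by
        intro h0
        rw [h0, orderOf_one] at ht'
        norm_num at ht'
      obtain ⟨u', hup, hu2, hinv⟩ := exists_inv (Cfsg.Agent.Lib.Cores.pCore_quotient_pCore 2) htt ht1
      obtain ⟨u, rfl⟩ := QuotientGroup.mk_surjective u'
      refine h4 (h.par hA2 hA hn (t := t) (fun a ha => hAn.conj_mem a ha t) ?_ (u := u)
        (fun a ha => hAn.conj_mem a ha u) ?_ ?_)
      · rw [← QuotientGroup.eq_one_iff, QuotientGroup.mk_mul, htt]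
      · intro w hw hu
        have h1 := hσf (u : K ⧸ pCore 2 K) hup hu2 ⟨w, hw⟩ (Subtype.ext (by rw [quoW_mk]; exact hu))
        exact congrArg Subtype.val h1
      · intro w hw
        have h1 : (t : K ⧸ pCore 2 K) * u = (u : K ⧸ pCore 2 K)⁻¹ * t := by
          rw [← hinv]; group
        have h2 := congrArg (fun g => ((quoW ρ (pCore 2 K) g ⟨w, hw⟩ : fixW ρ (pCore 2 K)) : V)) h1
        change ((quoW ρ (pCore 2 K) ((t * u : K) : K ⧸ pCore 2 K) ⟨w, hw⟩ : fixW ρ (pCore 2 K)) : V) =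
          ((quoW ρ (pCore 2 K) ((u⁻¹ * t : K) : K ⧸ pCore 2 K) ⟨w, hw⟩ : fixW ρ (pCore 2 K)) : V) at h2
        rw [quoW_mk, quoW_mk, map_mul, map_mul] at h2
        exact h2
    rw [hκ0, pow_zero, mul_one] at hB
    have := num_e hf3 (show 3 ≤ j by omega)
    omega
  have hj4 : 4 ≤ j := by omega
  have hnd := num_d hf3 hj4
  have hsmall : 2 ^ κ ≤ 8 * j + 4 → False := by
    intro h1
    have h2 := hB.trans (Nat.mul_le_mul_left (4 * f * (2 ^ f + 1)) h1)
    omega
  -- the core theorem for the quotient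
  have hKc : Cyc 2 (K ⧸ pCore 2 K) := hσf.toCyc Nat.prime_two
  have hvr : (Nat.card (K ⧸ pCore 2 K)).factorization 2 < r := by omega
  have hFit := hσf.fit Nat.prime_two h.hr (by omega) h.r2 hyq (fun b hb => by
    rw [Cfsg.Agent.Lib.Cores.pCore_quotient_pCore, Subgroup.mem_bot] at hb
    rw [hb]
    exact Commute.one_right _)
  rcases coreS Nat.prime_two h.hr h.r2 h.r2 hKc (y : K ⧸ pCore 2 K) hyq hFit
    (hout_of hJ Nat.prime_two h.hr h.r2 hKc hvr) with hN | ⟨L, hL, hLn, hyL, hyC, hS, hd1, hd2⟩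
  · -- `⟨y⟩` normal
    exfalso
    obtain ⟨D, hD0, hDle, hncD, hnD⟩ := hσf.nc_dvd Nat.prime_two h.hr h.r2 hyq
    rw [h.ordq] at hnD
    rw [hfin] at hDle
    have hDn : D = n := le_antisymm hDle (Nat.le_of_dvd hD0 hnD)
    rw [hDn] at hncD
    have h5 := card_nc (y : K ⧸ pCore 2 K)
    rw [Subgroup.normalizer_eq_top_iff.2 hN, Subgroup.card_top] at h5
    have h6 : κ = (nc (y : K ⧸ pCore 2 K)).factorization 2 := by
      rw [hκ, h5, Nat.factorization_mul Nat.card_pos.ne' (nc_pos _).ne', Finsupp.add_apply,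
        Nat.factorization_eq_zero_of_not_dvd hcent, zero_add]
    have h7 : 2 ^ κ ≤ n := by
      rw [h6]
      exact (Nat.le_of_dvd (nc_pos _) (Nat.ordProj_dvd _ 2)).trans (Nat.le_of_dvd (by omega) hncD)
    exact hsmall (by omega)
  · have hsimple : IsSimpleGroup (↥L ⧸ center ↥L) := hL.2.2
    have hnc' := not_comm_of (quasisimple_quot_not_solvable hL.2)
    have hZ := center_bot hnc'
    have hrS := dvd_card_quot h.hr hyq hyL hyC
    have hCL : (Nat.card (centralizer (L : Set (K ⧸ pCore 2 K)))).factorization 2 = 0 := by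
      apply Nat.factorization_eq_zero_of_not_dvd
      intro h8
      apply hcent
      refine h8.trans (Subgroup.card_dvd_of_le ?_)
      intro c hc
      rw [mem_centralizer_singleton_iff]
      exact (mem_centralizer_iff.1 hc _ hyL).symm
    have hκS : κ ≤ (Nat.card (MulAut (↥L ⧸ center ↥L))).factorization 2 := by
      have h6 := fac_le (p := 2) hd1 (mul_ne_zero Nat.card_pos.ne' Nat.card_pos.ne')
      rw [Nat.factorization_mul Nat.card_pos.ne' Nat.card_pos.ne', Finsupp.add_apply, hCL, zero_add] at h6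
      rw [hκ]; exact h6
    have hSK : Nat.card (↥L ⧸ center ↥L) ∣ Nat.card (K ⧸ pCore 2 K) := (dvd_mul_right _ _).trans hd2
    have hSK' : Nat.card (↥L ⧸ center ↥L) ∣ Nat.card K := hSK.trans (by rw [hcard]; exact dvd_mul_right _ _)
    rcases hS with hS | hS | hS | hS | hS
    · -- `L₂(2 ^ b)`
      obtain ⟨F', iF, iF', b, hF', hb4, ⟨e⟩⟩ := hS
      obtain ⟨h5, h6, _⟩ := psl2_data hZ Nat.prime_two hF' hb4 e
      have hb0 : b ≠ 0 := by rintro rfl; rw [pow_zero] at hb4; omega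
      have hg : Nat.gcd 2 (2 ^ b - 1) = 1 :=
        (Nat.Prime.coprime_iff_not_dvd Nat.prime_two).2 (H100.D2.odd_two_pow_sub hb0)
      rw [hg, mul_one, ← pow_mul] at h6
      have h7 : f * n ∣ b * 2 := by
        apply h.ord_dvd
        rw [h6] at hrS
        refine ((Nat.Prime.dvd_mul h.hr).1 hrS).resolve_left fun h8 => h.r2 ?_
        exact (Nat.prime_dvd_prime_iff_eq h.hr Nat.prime_two).1 (h.hr.dvd_of_dvd_pow h8)
      have h8 : 2 ^ (b * 2) - 1 ∣ 2 ^ (f * n) - 1 :=
        h.dvd_odd (H100.D2.odd_two_pow_sub (by omega)) ((by rw [h6]; exact dvd_mul_left _ _ : 2 ^ (b * 2) - 1 ∣ _).trans hSK')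
      have h9 : b * 2 = f * n := by
        apply le_antisymm _ (Nat.le_of_dvd (by omega) h7)
        have h10 := h.pos
        have h11 := Nat.le_of_dvd (by omega) h8
        have h12 : 2 ^ (b * 2) ≤ 2 ^ (f * n) := by
          have : 1 ≤ 2 ^ (b * 2) := Nat.one_le_two_pow
          omega
        exact (Nat.pow_le_pow_iff_right (by norm_num)).1 h12
      refine ⟨?_, ?_⟩
      · have h10 : 2 ^ b ∣ Nat.card (K ⧸ pCore 2 K) := (by rw [h6]; exact dvd_mul_right _ _ : 2 ^ b ∣ _).trans hSK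
        have h11 : b ≤ κ := by
          rw [hκ]
          exact (Nat.prime_two.pow_dvd_iff_le_factorization Nat.card_pos.ne').1 h10
        have h12 : ∀ b : ℕ, 9 ≤ b → b * 2 < 2 ^ b := by
          intro b hb
          induction b, hb using Nat.le_induction with
          | base => norm_num
          | succ m hm ih => rw [pow_succ]; omega
        calc f * n = b * 2 := h9.symm
          _ < 2 ^ b := h12 b (by omega)
          _ ≤ 2 ^ κ := Nat.pow_le_pow_right two_pos h11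
      · rw [← h9]
        exact (by rw [h6]; exact dvd_mul_left _ _ : 2 ^ (b * 2) - 1 ∣ _).trans hSK'
    · -- `L₂(l)`
      exfalso
      obtain ⟨F', iF, iF', hpr, hne, h5, ⟨e⟩⟩ := hS
      obtain ⟨h6, _, _⟩ := psl2_data hZ (l := Fintype.card F') (b := 1) hpr (by rw [pow_one]) (by rw [pow_one]; omega) e
      rw [pow_one, one_mul] at h6
      have h7 : Fintype.card F' ≤ 2 * n + 1 := by
        obtain ⟨u, w', i, hu, huv, hi⟩ := exists_split hpr (cyc_sub hpr (hKc.cyc _ hpr hne hne) L) rfl e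
        have hu' : orderOf (u : K ⧸ pCore 2 K) = Fintype.card F' := by rw [Subgroup.orderOf_coe]; exact hu
        have h7 : (w' : K ⧸ pCore 2 K) * u * (w' : K ⧸ pCore 2 K)⁻¹ = (u : K ⧸ pCore 2 K) ^ i := congrArg Subtype.val huv
        have h8 := Nat.le_of_dvd (nc_pos _) (dvd_nc hu' h7)
        have h9 := hσf.nc_le (y := (u : K ⧸ pCore 2 K)) (r := Fintype.card F') hpr hne hu'
        rw [hfin] at h9
        omega
      set l := Fintype.card F' with hl'
      have h8 : l ^ 2 - 1 = (l - 1) * (l + 1) := by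
        have := Nat.sq_sub_sq l 1
        rw [one_pow] at this
        rw [this, mul_comm]
      obtain ⟨x, x', hxy, hx2, hx'⟩ := prod_bound (p := 2) Nat.prime_two (l := l) (by omega)
      have hll : l.factorization 2 = 0 := by
        apply Nat.factorization_eq_zero_of_not_dvd
        intro h
        exact hne ((Nat.prime_dvd_prime_iff_eq Nat.prime_two hpr).1 h).symm
      have h9 : (Nat.card (MulAut (↥L ⧸ center ↥L))).factorization 2 = x + x' := by
        rw [h6, h8, Nat.factorization_mul (by omega) (mul_ne_zero (by omega) (by omega)), Finsupp.add_apply, hxy, hll, zero_add]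
      apply hsmall
      calc 2 ^ κ ≤ 2 ^ (x + x') := Nat.pow_le_pow_right two_pos (by omega)
        _ = 2 ^ x * 2 ^ x' := pow_add _ _ _
        _ ≤ 2 * (l + 1) := Nat.mul_le_mul (Nat.le_of_dvd two_pos hx2) hx'
        _ ≤ 8 * j + 4 := by omega
    · -- Suzuki
      exfalso
      obtain ⟨_, hS⟩ := hS
      obtain ⟨b, hbo, hb3, hcs, ho⟩ := suz_data hZ hS
      have hodd1 : ¬ 2 ∣ ((2 ^ b) ^ 2 + 1) * (2 ^ b - 1) := by
        intro h2
        have he : 2 ∣ 2 ^ b := dvd_pow_self 2 (by omega)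
        have h1 : 1 ≤ 2 ^ b := Nat.one_le_two_pow
        rcases (Nat.Prime.dvd_mul Nat.prime_two).1 h2 with h3 | h3
        · have h4 : 2 ∣ (2 ^ b) ^ 2 := dvd_pow he two_ne_zero
          omega
        · omega
      have h1 : Nat.card (↥L ⧸ center ↥L) = 2 ^ (b * 2) * (((2 ^ b) ^ 2 + 1) * (2 ^ b - 1)) := by
        rw [hcs, pow_mul]; ring
      have hb2 : ¬ 2 ∣ b := by rw [← even_iff_two_dvd, Nat.not_even_iff_odd]; exact hbo
      have h2 : (Nat.card (MulAut (↥L ⧸ center ↥L))).factorization 2 = b * 2 := by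
        rw [card_mulAut hZ, ho, h1, mul_assoc]
        apply H100.D2.fac_two_pow_mul
        intro h2
        rcases (Nat.Prime.dvd_mul Nat.prime_two).1 h2 with h3 | h3
        · exact hodd1 h3
        · exact hb2 h3
      have h3 : r ∣ ((2 ^ b) ^ 2 + 1) * (2 ^ b - 1) := by
        rw [h1] at hrS
        refine ((Nat.Prime.dvd_mul h.hr).1 hrS).resolve_left fun h8 => h.r2 ?_
        exact (Nat.prime_dvd_prime_iff_eq h.hr Nat.prime_two).1 (h.hr.dvd_of_dvd_pow h8)
      have h5 : f * n ∣ b * 4 := h.ord_dvd (dvd_sq h3)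
      have h6 : ((2 ^ b) ^ 2 + 1) * (2 ^ b - 1) ∣ 2 ^ (f * n) - 1 :=
        h.dvd_odd hodd1 ((by rw [h1]; exact dvd_mul_left _ _ : ((2 ^ b) ^ 2 + 1) * (2 ^ b - 1) ∣ _).trans hSK')
      have h7 : f * n = 4 * b := by
        obtain ⟨w, hw⟩ := h5
        have h10 := h.pos
        have h11 := Nat.le_of_dvd (by omega) h6
        have h12 : 2 ^ (2 * b) < 2 ^ (f * n) := by
          have h13 : 2 ^ (2 * b) = (2 ^ b) ^ 2 := by rw [mul_comm, pow_mul]
          have h14 : 2 ≤ 2 ^ b := by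
            calc 2 = 2 ^ 1 := rfl
              _ ≤ 2 ^ b := Nat.pow_le_pow_right two_pos (by omega)
          have h15 : ((2 ^ b) ^ 2 + 1) * 1 ≤ ((2 ^ b) ^ 2 + 1) * (2 ^ b - 1) := Nat.mul_le_mul_left _ (by omega)
          omega
        have h13 : 2 * b < f * n := (Nat.pow_lt_pow_iff_right (by norm_num)).1 h12
        rcases w with _ | _ | w
        · omega
        · omega
        · exfalso
          have : f * n * (w + 1 + 1) = f * n * w + 2 * (f * n) := by ring
          omega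
      -- the bound for `A`
      have hyA : y ∈ centralizer (pCore 2 K : Set K) := by
        rw [mem_centralizer_iff]
        intro g hg
        exact (hcomm g hg).eq.symm
      obtain ⟨S, hScard, hSc⟩ := h.emb hA2 hA hn (L := centralizer (pCore 2 K : Set K)) hyA (by
        intro g hg b hb
        exact (mem_centralizer_iff.1 hg b hb).symm)
      have hlift := lift_cent hL.2 hyA hyL hyC
      have hSle : Nat.card S ≤ 2 ^ b := by
        refine hSuz hL.2 ((quoW ρ (pCore 2 K)).comp L.subtype) (hσ.comp L.subtype_injective) (hσf.comp L)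
          (y := ⟨(y : K ⧸ pCore 2 K), hyL⟩) hirr (by omega) ?_ hcs S ?_
        · rw [h.cardW hA2 hA hn, h7]
        · intro e he g
          obtain ⟨x, hx, hxg⟩ := hlift g g.2
          apply LinearMap.ext
          intro w
          have h8 := hSc e he x hx w (quoW ρ (pCore 2 K) (x : K ⧸ pCore 2 K) w) (quoW_mk _ _ _)
          apply Subtype.ext
          rw [Module.End.mul_apply, Module.End.mul_apply]
          change ((e (quoW ρ (pCore 2 K) (g : K ⧸ pCore 2 K) w) : fixW ρ (pCore 2 K)) : V) =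
            ((quoW ρ (pCore 2 K) (g : K ⧸ pCore 2 K) (e w) : fixW ρ (pCore 2 K)) : V)
          rw [← hxg, h8, quoW_mk]
      rw [hScard, ha] at hSle
      have hab : a ≤ b := (Nat.pow_le_pow_iff_right (by norm_num)).1 hSle
      -- the numbers
      obtain ⟨c, hc⟩ := h4
      have hbc : b = f * c := by
        have : 4 * b = 4 * (f * c) := by rw [← h7, hc]; ring
        omega
      have hco : ¬ 2 ∣ c := fun h0 => hb2 (hbc ▸ h0.mul_left f)
      have hc3 : 3 ≤ c := by omega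
      have h8 := num_e hf3 hc3
      have h9 : 2 ^ (3 * b) * 2 ^ b ≤ 2 ^ (3 * b) * (4 * f * (2 ^ f + 1)) := by
        calc 2 ^ (3 * b) * 2 ^ b = 2 ^ (f * n) := by rw [h7, ← pow_add]; congr 1; ring
          _ ≤ 4 * f * (2 ^ f + 1) * 2 ^ (Nat.card K).factorization 2 := hlow
          _ ≤ 4 * f * (2 ^ f + 1) * 2 ^ (3 * b) := Nat.mul_le_mul_left _ (Nat.pow_le_pow_right two_pos (by omega))
          _ = _ := by ring
      have h10 := Nat.le_of_mul_le_mul_left h9 (by positivity)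
      rw [hbc] at h10
      omega
    · -- `J₁`
      exfalso
      obtain ⟨_, hS⟩ := hS
      have h1 : Nat.card (↥L ⧸ center ↥L) = 175560 := hS.2
      have h2 : Nat.card (MulAut (↥L ⧸ center ↥L)) = 2 ^ 3 * 21945 := by
        rw [card_mulAut hZ, hJ _ hS, h1]
        norm_num
      have h3 : (Nat.card (MulAut (↥L ⧸ center ↥L))).factorization 2 = 3 := by
        rw [h2]; exact H100.D2.fac_two_pow_mul (by norm_num)
      apply hsmall
      calc 2 ^ κ ≤ 2 ^ 3 := Nat.pow_le_pow_right two_pos (by omega)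
        _ ≤ 8 * j + 4 := by omega
    · exact absurd rfl hS.1

end Cfsg.Agent.H997.Rg
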